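import Mathlib
import Cfsg.Agent.Lib.Coprime.Hall

/-!
# Hall subgroups of symmetric groups: partitions whose stabilizer has index free of small primes
-/

set_option autoImplicit false

namespace CfsgLib.SymSub

open Equiv Finset Subgroup

theorem kummer_ne {a b : ℕ} (ha : 3 ≤ a) (hb : 1 ≤ b) (hab : b < a)
    (h : ∀ p e : ℕ, p.Prime → p ≤ a → a % p ^ e + b % p ^ e < p ^ e) : b = 1 ∨ (a = 4 ∧ b = 3) := by
  have key : ∀ {x y j : ℕ}, 0 < j → (∀ p e : ℕ, p.Prime → p ≤ a → x % p ^ e + y % p ^ e < p ^ e) →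
      (∀ p, p.Prime → p ∣ x + j → p ≤ a) → x + j ∣ y.descFactorial j := fun {x y j} hj h h' =>
    (Nat.dvd_iff_prime_pow_dvd_dvd _ _).2 fun p e hp hd => by
      rcases e.eq_zero_or_pos with rfl | he
      · simp
      have h1 := h p e hp (h' p hp ((dvd_pow_self p he.ne').trans hd))
      have h2 : y % p ^ e < j := by
        by_contra! h2
        have h3 := (Nat.dvd_iff_mod_eq_zero ..).1 hd
        rw [← Nat.mod_add_mod, Nat.mod_eq_of_lt (by omega)] at h3
        exact hj.ne' (Nat.add_eq_zero_iff.1 h3).2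
      rw [Nat.descFactorial_eq_prod_range]
      exact (Nat.dvd_sub_mod y).trans (dvd_prod_of_mem _ (mem_range.2 h2))
  have h' : ∀ p e : ℕ, p.Prime → p ≤ a → b % p ^ e + a % p ^ e < p ^ e := fun p e => add_comm (a % _) _ ▸ h p e
  have h1 : (a + 1).Prime := by
    by_contra h1
    have := Nat.le_of_dvd (by simpa) (key (j := 1) (by norm_num) h fun p hp hd => Nat.le_of_lt_succ
      ((Nat.le_of_dvd a.succ_pos hd).lt_of_ne (by rintro rfl; exact h1 hp)))
    simp at this
    omega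
  have h2 := h1.eq_two_or_odd
  have h3 := key (j := 2) (by norm_num) h fun p hp hd => by
    obtain ⟨k, hk⟩ := hd
    have := hp.eq_two_or_odd
    rcases k with _ | _ | k
    · omega
    · omega
    · nlinarith [hp.two_le]
  obtain ⟨m, rfl⟩ : b + 1 ∣ a := by
    simpa using key (j := 1) (by norm_num) h' fun p _ hd => (Nat.le_of_dvd b.succ_pos hd).trans hab
  obtain ⟨b, rfl⟩ := Nat.exists_eq_add_of_le' hb
  rcases b.eq_zero_or_pos with rfl | hb0
  · simp
  right
  simp only [Nat.descFactorial_succ, Nat.descFactorial_zero, Nat.sub_zero, mul_one, Nat.add_sub_cancel] at h3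
  rcases m with _ | _ | m
  · omega
  · have h4 : b + 4 ∣ 12 := (Nat.dvd_add_right (Dvd.intro b rfl)).1 (by
      have : (b + 4) * b + 12 = b * (b + 1) + 3 * (b + 4) := by ring
      exact this ▸ dvd_add (by simpa [add_assoc] using h3) (Dvd.intro_left 3 rfl))
    have : b ≤ 8 := by have := Nat.le_of_dvd (by norm_num) h4; omega
    have h5 := h 2 4 Nat.prime_two (by omega)
    interval_cases b <;> omega
  have h4 := key (j := 2) (by norm_num) h' fun p _ hd => (Nat.le_of_dvd (by omega) hd).trans (by nlinarith)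
  obtain ⟨k, hk⟩ := h3
  have h5 : (b + 2) ∣ 2 * k - 2 := by
    have : 2 * k + (b + 2) * ((m + 2) * k + 1) = 2 + (b + 2) * b := by linear_combination -hk
    exact (Nat.modEq_iff_dvd' (by rcases k with _ | k; nlinarith; omega)).1 (by
      simpa [Nat.ModEq] using congrArg (· % (b + 2)) this.symm)
  obtain rfl : k = 1 := by
    rcases k with _ | _ | k
    · nlinarith
    · rfl
    · have := Nat.le_of_dvd (by omega) h5
      have : b ≤ 2 * k := by omega
      nlinarith [Nat.zero_le (b * m * k), Nat.zero_le (b * m), Nat.zero_le (m * k), Nat.mul_le_mul_left b this]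
  obtain rfl : b = m + 3 := Nat.eq_of_mul_eq_mul_left (by omega : 0 < b + 2) (by zify at hk ⊢; linear_combination hk)
  have h6 : m + 6 ∣ 12 := by
    rw [show (m + 3 + 1 + 1) * (m + 1 + 1) = m * (m + 7) + 9 + 1 by ring] at h4
    simp only [Nat.descFactorial_succ, Nat.descFactorial_zero, Nat.sub_zero, mul_one, Nat.add_sub_cancel] at h4
    exact (Nat.dvd_add_right (Dvd.intro ((m + 1) * (m * m + 7 * m + 13)) rfl)).1 (by
      convert h4 using 1; ring)
  have : m ≤ 6 := by have := Nat.le_of_dvd (by norm_num) h6; omega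
  have h7 := h 7 1 (by norm_num) (by nlinarith)
  interval_cases m <;> omega

theorem kummer_eq {d : ℕ} (hd : 3 ≤ d)
    (h : ∀ p e : ℕ, p.Prime → p ≤ d → (∀ s, d ≠ p ^ s) → d % p ^ e + d % p ^ e < p ^ e) : d = 4 := by
  obtain ⟨s, rfl⟩ : ∃ s, d = 2 ^ s := by
    by_contra! h1
    have h2 := h 2 (Nat.log 2 d + 1) Nat.prime_two (by omega) h1
    have h3 := Nat.pow_log_le_self 2 (show d ≠ 0 by omega)
    rw [Nat.mod_eq_of_lt (Nat.lt_pow_succ_log_self one_lt_two d), pow_succ] at h2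
    omega
  obtain ⟨s, rfl⟩ : ∃ t, s = t + 2 := ⟨s - 2, by rcases s with _ | _ | s <;> omega⟩
  have e1 : 2 ^ (s + 2) = 2 * 2 ^ (s + 1) := by ring
  have e2 : 2 ^ (s + 1) = 2 * 2 ^ s := by ring
  have e3 : 0 < 2 ^ s := by positivity
  suffices 2 ^ (s + 1) + 1 ∣ 3 by have := Nat.le_of_dvd three_pos this; omega
  refine (Nat.dvd_iff_prime_pow_dvd_dvd _ _).2 fun p e hp he => ?_
  rcases e.eq_zero_or_pos with rfl | h0
  · simp
  have h1 := (dvd_pow_self p h0.ne').trans he
  have h2 : p ≠ 2 := by rintro rfl; omega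
  have h3 := h p e hp ((Nat.le_of_dvd (by omega) h1).trans (by omega)) fun t ht => h2
    ((Nat.prime_dvd_prime_iff_eq Nat.prime_two hp).1 (Nat.prime_two.dvd_of_dvd_pow (ht ▸ dvd_pow_self 2 (by omega)))).symm
  have h4 : p ^ e ∣ 2 ^ (s + 2) % p ^ e + 2 := by
    rw [Nat.dvd_iff_mod_eq_zero, Nat.mod_add_mod, ← Nat.dvd_iff_mod_eq_zero]
    exact he.trans ⟨2, by ring⟩
  have h5 := Nat.le_of_dvd (Nat.succ_pos _) h4
  have h6 : 3 ≤ p ^ e := (by have := hp.two_le; omega : 3 ≤ p).trans (Nat.le_self_pow h0.ne' p)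
  rw [show p ^ e = 3 by omega]

variable {α : Type*} [Fintype α] [DecidableEq α]

omit [Fintype α] in
theorem dvd_card_of_classes {d : ℕ} (Z : Finset α) (f : α → Finset α)
    (h1 : ∀ z ∈ Z, z ∈ f z ∧ f z ⊆ Z ∧ #(f z) = d) (h2 : ∀ z ∈ Z, ∀ w ∈ f z, f w = f z) : d ∣ #Z := by
  rw [card_eq_sum_card_image f]
  refine dvd_sum fun _ h => ?_
  obtain ⟨z, hz, rfl⟩ := mem_image.1 h
  rw [← (h1 z hz).2.2]
  exact (congrArg card (Finset.ext fun w => by
    rw [mem_filter]
    exact ⟨fun h => ⟨(h1 z hz).2.1 h, h2 z hz w h⟩, fun h => h.2 ▸ (h1 w h.1).1⟩)).dvd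

/-- A subgroup of index prime to `p` contains as many disjoint `p ^ e`-cycles as possible. -/
theorem exists_cover {M K : Subgroup (Perm α)} [K.Normal] {p e : ℕ} (hp : p.Prime) (he : e ≠ 0)
    (h : ¬ p ∣ M.relIndex K) : ∃ σ : Perm α, (∀ c ∈ σ.cycleFactorsFinset, #c.support = p ^ e) ∧
      #σ.supportᶜ < p ^ e ∧ Subgroup.closure σ.cycleFactorsFinset ⊓ K ≤ M := by
  have := Fact.mk hp
  obtain ⟨σ, hσ⟩ := (Perm.exists_with_cycleType_iff α (m := .replicate (Fintype.card α / p ^ e) (p ^ e))).2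
    ⟨by simpa using Nat.div_mul_le_self _ _, fun a ha =>
      Multiset.eq_of_mem_replicate ha ▸ Nat.one_lt_pow he hp.one_lt⟩
  have h1 : ∀ τ : Perm α, τ.cycleType = σ.cycleType → ∀ c ∈ τ.cycleFactorsFinset, #c.support = p ^ e :=
    fun τ h c hc => Multiset.eq_of_mem_replicate (hσ ▸ h ▸
      (show #c.support ∈ τ.cycleType from Multiset.mem_map.2 ⟨c, hc, rfl⟩))
  have h2 : IsPGroup p (Subgroup.closure (σ.cycleFactorsFinset : Set (Perm α)) ⊓ K : Subgroup _) := fun g => ⟨e, by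
    have hc := closure_le_centralizer_centralizer (σ.cycleFactorsFinset : Set (Perm α))
    refine Subtype.ext (closure_induction (p := fun g _ => g ^ p ^ e = 1) (fun c hc => ?_) (one_pow _)
      (fun x y hx hy h h' => ?_) (fun x _ h => by rw [inv_pow, h, inv_one]) g.2.1)
    · rw [← h1 σ rfl c hc, ← (Perm.mem_cycleFactorsFinset_iff.1 hc).1.orderOf, pow_orderOf_eq_one]
    · rw [Commute.mul_pow, h, h', one_mul]
      exact (hc hy x ((closure_le (centralizer _)).2 (fun a ha b hb =>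
        Perm.cycleFactorsFinset_mem_commute' σ hb ha) hx))⟩
  obtain ⟨x, hx⟩ := (h2.comap_subtype (K := K)).nonempty_fixed_point_of_prime_not_dvd_card
    (K ⧸ M.subgroupOf K) h
  obtain ⟨k, rfl⟩ := QuotientGroup.mk_surjective x
  have h3 : (k⁻¹ * σ * k⁻¹⁻¹ : Perm α).cycleType = σ.cycleType := Perm.cycleType_conj
  refine ⟨_, h1 _ h3, ?_, fun g hg => ?_⟩
  · rw [card_compl, ← Perm.sum_cycleType, h3, hσ, Multiset.sum_replicate, smul_eq_mul,
      ← Nat.mod_eq_sub_div_mul]
    exact Nat.mod_lt _ (pow_pos hp.pos e)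
  · have h4 : k * g * k⁻¹ ∈ Subgroup.closure (σ.cycleFactorsFinset : Set (Perm α)) :=
      (closure_le ((Subgroup.closure _).comap (MulAut.conj k.1).toMonoidHom)).2 (fun c hc => subset_closure (by
        simpa [mul_assoc] using (Perm.mem_cycleFactorsFinset_conj _ k.1 c).2 hc)) hg.1
    have h5 : (k * g * k⁻¹ * k : Perm α)⁻¹ * k ∈ M := (QuotientGroup.eq (s := M.subgroupOf K)).1
      (hx ⟨⟨_, ‹K.Normal›.conj_mem g hg.2 k⟩, h4, ‹K.Normal›.conj_mem g hg.2 k⟩)
    simpa using h5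

/-- The stabilizer of a partition. -/
def partStab (r : Setoid α) : Subgroup (Perm α) where
  carrier := {g | ∀ x y, r (g x) (g y) ↔ r x y}
  mul_mem' ha hb x y := (ha _ _).trans (hb x y)
  one_mem' _ _ := Iff.rfl
  inv_mem' {a} ha x y := by simpa using (ha (a⁻¹ x) (a⁻¹ y)).symm

open scoped Classical in
/-- The block of a point. -/
noncomputable def pblk (r : Setoid α) (x : α) : Finset α := {y | r x y}

variable {r : Setoid α}

omit [DecidableEq α] in
@[simp] theorem mem_pblk {x y : α} : y ∈ pblk r x ↔ r x y := by simp [pblk]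

omit [DecidableEq α] in
theorem pblk_eq {x y : α} (h : r x y) : pblk r x = pblk r y :=
  Finset.ext fun _ => by simpa using ⟨r.trans' (r.symm' h), r.trans' h⟩

omit [DecidableEq α] in
theorem card_pblk_apply {g : Perm α} (hg : g ∈ partStab r) (x : α) : #(pblk r (g x)) = #(pblk r x) :=
  (card_equiv g fun y => by simpa using (hg x y).symm).symm

theorem sum_mod_lt {p : ℕ} (hp : p.Prime) (h : ¬ p ∣ (partStab r).index) (e : ℕ) (T : Finset α)
    (h1 : (T : Set α).Pairwise fun x y => ¬ r x y)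
    (h2 : ∀ x ∈ T, (∀ y, #(pblk r y) = #(pblk r x) → r x y) ∨ ∀ s, #(pblk r x) ≠ p ^ s) :
    ∑ x ∈ T, #(pblk r x) % p ^ e < p ^ e := by
  rcases eq_or_ne e 0 with rfl | he
  · simp [Nat.mod_one]
  obtain ⟨σ, a1, a2, a3⟩ := exists_cover (K := ⊤) hp he (by rwa [relIndex_top_right])
  have h3 : ∀ x ∈ T, ∀ c ∈ σ.cycleFactorsFinset, ∀ y ∈ c.support, r x y → ∀ z ∈ c.support, r x z := by
    intro x hx c hc y hy hxy
    have hc' : c ∈ partStab r := a3 ⟨subset_closure hc, trivial⟩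
    have hcy := (Perm.mem_cycleFactorsFinset_iff.1 hc).1
    have b1 : ∀ z ∈ c.support, ∃ k : ℕ, (c ^ k) y = z := fun z hz =>
      hcy.exists_pow_eq (Perm.mem_support.1 hy) (Perm.mem_support.1 hz)
    by_cases b2 : r y (c y)
    · intro z hz
      obtain ⟨k, rfl⟩ := b1 z hz
      clear hz
      induction k with
      | zero => exact hxy
      | succ k ih => exact r.trans' ih (pow_succ c k ▸ (pow_mem hc' k _ _).2 b2)
    have b3 : ∀ z ∈ c.support, z ∈ pblk r z ∧ pblk r z ⊆ c.support ∧ #(pblk r z) = #(pblk r x) := fun z hz => by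
      obtain ⟨k, rfl⟩ := b1 z hz
      refine ⟨by simp, fun w hw => Perm.mem_support.2 fun h => b2 ?_,
        (card_pblk_apply (pow_mem hc' k) y).trans (by rw [pblk_eq hxy])⟩
      refine (pow_mem hc' k _ _).1 (r.trans' (mem_pblk.1 hw) (r.symm' ?_))
      rw [← h, ← Perm.mul_apply, ← pow_succ, pow_succ']
      exact (hc' _ _).2 (mem_pblk.1 hw)
    rcases h2 x hx with h | h
    · exact absurd (r.trans' (r.symm' hxy) (h _ (b3 _ (Perm.apply_mem_support.2 hy)).2.2)) b2
    · obtain ⟨s, -, hs⟩ := (Nat.dvd_prime_pow hp).1 (a1 c hc ▸ dvd_card_of_classes _ _ b3 fun z _ w hw =>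
        (pblk_eq (mem_pblk.1 hw)).symm)
      exact absurd hs (h s)
  refine lt_of_le_of_lt ?_ ((card_le_card (biUnion_subset.2 fun x _ => inter_subset_right)).trans_lt a2 :
    #(T.biUnion fun x => pblk r x ∩ σ.supportᶜ) < _)
  rw [card_biUnion fun x hx y hy hxy => disjoint_left.2 fun z h h' => h1 hx hy hxy (r.trans'
    (mem_pblk.1 (mem_inter.1 h).1) (r.symm' (mem_pblk.1 (mem_inter.1 h').1)))]
  refine sum_le_sum fun x hx => ?_
  obtain ⟨k, hk⟩ := dvd_card_of_classes (d := p ^ e) (pblk r x ∩ σ.support) (fun z => (σ.cycleOf z).support)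
    (fun z hz => by
      have hc := Perm.cycleOf_mem_cycleFactorsFinset_iff.2 (mem_inter.1 hz).2
      have hz' := Perm.mem_support_cycleOf_iff.2 ⟨.refl _ _, (mem_inter.1 hz).2⟩
      exact ⟨hz', fun w hw => mem_inter.2 ⟨mem_pblk.2 (h3 x hx _ hc z hz' (mem_pblk.1 (mem_inter.1 hz).1) w hw),
        Perm.support_cycleOf_le _ _ hw⟩, a1 _ hc⟩)
    fun z _ w hw => by rw [(Perm.mem_support_cycleOf_iff.1 hw).1.cycleOf_eq]
  rw [← card_inter_add_card_sdiff _ σ.support, hk, Nat.mul_add_mod, sdiff_eq_inter_compl]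
  exact Nat.mod_le _ _

theorem two_blocks {x : α} (h3 : 3 ≤ #(pblk r x)) (hx : ∀ y, #(pblk r y) ≤ #(pblk r x)) (hn : ∃ y, ¬ r x y)
    (hp : ∀ p, p.Prime → p ≤ #(pblk r x) → ¬ p ∣ (partStab r).index)
    (h2 : ∀ y z, #(pblk r y) ≤ 2 → #(pblk r z) ≤ 2 → r y z) : ∃ y, pblk r x = (pblk r y)ᶜ ∧
      (#(pblk r y) = 1 ∨ #(pblk r x) = 4 ∧ (#(pblk r y) = 3 ∨ #(pblk r y) = 4)) := by
  have h0 : ∀ y, 1 ≤ #(pblk r y) := fun y => card_pos.2 ⟨y, by simp⟩
  have pair : ∀ {u v : α}, ¬ r u v → (({u, v} : Finset α) : Set α).Pairwise fun x y => ¬ r x y :=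
    fun h => by simpa [Set.pairwise_pair] using fun _ => ⟨h, fun h' => h (r.symm' h')⟩
  have hne : ∀ {u v : α}, ¬ r u v → u ≠ v := fun h e => h (e ▸ r.refl' _)
  have fin : ∀ u v, ¬ r u v → (∀ w, r u w ∨ r v w) → pblk r u = (pblk r v)ᶜ := fun u v h h' =>
    Finset.ext fun w => by
      simpa using ⟨fun a b => h (r.trans' a (r.symm' b)), fun a => (h' w).resolve_right a⟩
  by_cases hA : ∀ u v, #(pblk r v) = #(pblk r u) → r u v
  · have h4 := fun u v (h : ¬ r u v) p e hp' hd => sum_pair (f := fun x => #(pblk r x) % p ^ e) (hne h) ▸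
      sum_mod_lt hp' (hp p hp' hd) e _ (pair h) fun x _ => .inl (hA x)
    have h5 := fun y (h : ¬ r x y) => kummer_ne h3 (h0 y) ((hx y).lt_of_ne fun e => h (hA _ _ e)) (h4 x y h)
    obtain ⟨y, hy⟩ := hn
    refine ⟨y, fin x y hy fun w => ?_, (h5 y hy).imp_right fun h => ⟨h.1, .inl h.2⟩⟩
    by_contra! h
    have h6 := h4 y w h.2 2 1 Nat.prime_two (by omega)
    have h7 := h5 y hy
    have h8 := h5 w h.1
    omega
  push Not at hA
  have h4 : ∀ u v, #(pblk r v) = #(pblk r u) → ¬ r u v → #(pblk r u) = 4 := fun u v e h =>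
    kummer_eq (by by_contra; exact h (h2 u v (by omega) (by omega))) fun p k hp' hd hs => by
      simpa [sum_pair (hne h), e] using sum_mod_lt hp' (hp p hp' (hd.trans (hx u))) k _ (pair h)
        fun x hx => .inr (by rcases mem_insert.1 hx with rfl | hx; exact hs; rwa [mem_singleton.1 hx, e])
  obtain ⟨u, v, e, h⟩ := hA
  have h5 := fun p (hp' : p.Prime) (ho : p ≠ 2) hd k T hT => sum_mod_lt hp' (hp p hp' hd) k T hT fun x _ =>
    (em _).imp_right fun h s hs => by
      push Not at h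
      obtain ⟨y, h1, h2⟩ := h
      have : 2 ∣ p ^ s := by rw [← hs, h4 x y h1 h2]; norm_num
      exact ho ((Nat.prime_dvd_prime_iff_eq Nat.prime_two hp').1 (Nat.prime_two.dvd_of_dvd_pow this)).symm
  have h6 := h4 u v e h
  have h7 : #(pblk r x) = 4 := by
    have := mt (fun hd => h5 5 Nat.prime_five (by norm_num) hd 1 _ (pair h)) (by simp [sum_pair (hne h), e, h6])
    have := hx u
    omega
  have h8 : ∀ w, r u w ∨ r v w := fun w => by
    by_contra! h'
    have h9 := fun k => h5 3 Nat.prime_three (by norm_num) h3 k {w, u, v} (by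
      rw [coe_insert]
      exact (pair h).insert fun y hy _ => by
        rcases mem_insert.1 (mem_coe.1 hy) with rfl | hy
        · exact ⟨fun a => h'.1 (r.symm' a), h'.1⟩
        · exact mem_singleton.1 hy ▸ ⟨fun a => h'.2 (r.symm' a), h'.2⟩)
    have a1 := h9 1
    have a2 := h9 2
    have a3 := hx w
    have a4 := h0 w
    rw [sum_insert (by simp [(hne h'.1).symm, (hne h'.2).symm]), sum_pair (hne h), e, h6] at a1 a2
    omega
  rcases h8 x with h9 | h9
  · exact ⟨v, pblk_eq h9 ▸ fin u v h h8, .inr ⟨h7, .inr (e.trans h6)⟩⟩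
  · exact ⟨u, pblk_eq h9 ▸ fin v u (fun h' => h (r.symm' h')) fun w => (h8 w).symm, .inr ⟨h7, .inr h6⟩⟩

end CfsgLib.SymSub
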