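import Cfsg.Agent.Lib.SymSub.HallA
import Cfsg.Agent.Lib.PSL2Rec.Basic

/-!
# Hall subgroups of symmetric and alternating groups (P. Hall, Thompson): structure theorem
-/

set_option autoImplicit false

namespace CfsgLib.SymSub

open Equiv Finset Subgroup MulAction
open scoped Pointwise

variable {α : Type*} [Fintype α] [DecidableEq α]

/-- Jordan: a group generated by cycles of prime length is highly transitive on its orbits. -/
theorem dvd_card_closure {S : Set (Perm α)} (hS : ∀ c ∈ S, c.IsCycle ∧ (#c.support).Prime) {c : Perm α}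
    (hc : c ∈ S) {x : α} (hx : c x ≠ x) {q : ℕ} (h1 : #c.support ≤ q)
    (h2 : q ≤ Nat.card (orbit (Subgroup.closure S) x)) : q ∣ Nat.card (Subgroup.closure S) := by
  classical
  set N := Subgroup.closure S
  have := Fintype.ofFinite (orbit N x)
  rcases h1.eq_or_lt with rfl | h1
  · rw [← (hS c hc).1.orderOf]
    exact Subgroup.orderOf_dvd_natCard _ (subset_closure hc)
  have hP : IsPreprimitive N (orbit N x) := ⟨fun {B} hB => by
    by_contra h
    obtain ⟨h, h'⟩ := not_or.1 h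
    obtain ⟨a, ha, b, hb, hab⟩ := Set.not_subsingleton_iff.1 h
    have key : ∀ g (hg : g ∈ N), (⟨g, hg⟩ : N) ∈ stabilizer N B := fun g hg =>
      closure_induction (fun d hd => by
        by_contra h
        have h3 := hB.smul_eq_or_disjoint ⟨d, subset_closure hd⟩ |>.resolve_left h
        have h4 : ∀ y ∈ B, d y ≠ y := fun y hy e =>
          Set.disjoint_left.1 h3 ⟨y, hy, Subtype.ext e⟩ hy
        obtain ⟨k, hk⟩ := (hS d hd).1.exists_pow_eq (h4 a ha) (h4 b hb)
        obtain ⟨m, hm⟩ := exists_pow_eq_self_of_coprime (n := k) (x := (⟨d, subset_closure hd⟩ : N)) (by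
          rw [orderOf_mk, Nat.coprime_comm, (hS d hd).1.orderOf, (hS d hd).2.coprime_iff_not_dvd,
            ← (hS d hd).1.orderOf, orderOf_dvd_iff_pow_eq_one]
          exact fun e => hab (Subtype.ext (by simpa [e] using hk)))
        exact h (hm ▸ pow_mem (hB.smul_eq_of_mem ha
          ((Subtype.ext hk : (⟨d, subset_closure hd⟩ : N) ^ k • a = b) ▸ hb) : _ ∈ stabilizer N B) m))
        (one_mem _) (fun _ _ _ _ => mul_mem) (fun _ _ => inv_mem) hg
    refine h' (Set.eq_univ_of_forall fun y => ?_)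
    obtain ⟨g, rfl⟩ := exists_smul_eq N a y
    exact key g g.2 ▸ Set.smul_mem_smul_set ha⟩
  let s : Set (orbit N x) := {y | c y = y}
  have hs : sᶜ.ncard = #c.support := by
    rw [← Set.ncard_image_of_injective _ Subtype.val_injective, ← Set.ncard_coe_finset]
    congr 1
    ext y
    refine ⟨by rintro ⟨y, h, rfl⟩; exact mem_coe.2 (Perm.mem_support.2 h), fun h => ?_⟩
    obtain ⟨k, rfl⟩ := (hS c hc).1.exists_pow_eq hx (Perm.mem_support.1 (mem_coe.1 h))
    exact ⟨⟨_, ⟨_, pow_mem (subset_closure hc) k⟩, rfl⟩, Perm.mem_support.1 (mem_coe.1 h), rfl⟩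
  have h3 := s.ncard_add_ncard_compl
  have h4 := (hS c hc).2.two_le
  obtain ⟨k, hk⟩ : ∃ k, s.ncard = k + 1 := ⟨s.ncard - 1, by omega⟩
  have : IsPretransitive (fixingSubgroup N s) (SubMulAction.ofFixingSubgroup N s) := ⟨fun a b => by
    obtain ⟨i, hi⟩ := (hS c hc).1.exists_pow_eq (show c a.1.1 ≠ a.1.1 from a.2) (show c b.1.1 ≠ b.1.1 from b.2)
    exact ⟨(⟨⟨c, subset_closure hc⟩, fun y => Subtype.ext y.2⟩ : fixingSubgroup N s) ^ i,
      Subtype.ext (Subtype.ext hi)⟩⟩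
  have h5 := (hP.isMultiplyPreprimitive hk (by omega) (.of_prime_card
    (hs ▸ (hS c hc).2 : sᶜ.ncard.Prime))).isMultiplyPretransitive
  obtain ⟨e⟩ : Nonempty (Fin (k + 2) ↪ orbit N x) :=
    Function.Embedding.nonempty_of_card_le (by rw [Fintype.card_fin, ← Nat.card_eq_fintype_card]; omega)
  refine Dvd.dvd.trans ?_ (stabilizer N e).index_dvd_card
  rw [index_stabilizer_of_transitive, Nat.card_eq_fintype_card, Fintype.card_embedding_eq, Fintype.card_fin,
    ← Nat.card_eq_fintype_card, Nat.descFactorial_eq_prod_range]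
  exact (show q = Nat.card (orbit N x) - (Nat.card (orbit N x) - q) by omega).dvd.trans
    (dvd_prod_of_mem _ (mem_range.2 (by omega)))

theorem dvd_orderOf_of_pow_apply {β : Type*} [Finite β] {u : Perm β} {a : β} {p : ℕ} (hp : p.Prime)
    (h : (u ^ p) a = a) (h' : u a ≠ a) : p ∣ orderOf u := by
  by_contra h1
  obtain ⟨m, hm⟩ := exists_pow_eq_self_of_coprime (hp.coprime_iff_not_dvd.2 h1)
  exact h' (hm ▸ pow_mem (show u ^ p ∈ stabilizer (Perm β) a from h) m : u ∈ stabilizer (Perm β) a)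

/-- A maximal matching all of whose double transpositions lie in `M`. -/
def Mt (M : Subgroup (Perm α)) (σ : Perm α) : Prop := (∀ a, σ (σ a) = a) ∧ (∀ a b, σ a = a → σ b = b → a = b) ∧
  ∀ a b, σ a ≠ a → σ b ≠ b → swap a (σ a) * swap b (σ b) ∈ M

theorem exists_mt {M : Subgroup (Perm α)} (h : ¬ 2 ∣ M.relIndex (alternatingGroup α)) : ∃ σ, Mt M σ := by
  obtain ⟨σ, h1, h2, h3⟩ := exists_cover Nat.prime_two one_ne_zero h
  have := Fact.mk Nat.prime_two
  have h4 : ∀ a, σ (σ a) = a := fun a => congrArg (· a) (show σ ^ 2 = 1 from Perm.pow_prime_eq_one_iff.2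
    fun c hc => by obtain ⟨d, hd, rfl⟩ := Multiset.mem_map.1 hc; exact h1 d hd)
  have h5 : ∀ a, σ a ≠ a → swap a (σ a) ∈ σ.cycleFactorsFinset := fun a ha => by
    have := (Perm.isCycle_cycleOf σ ha).eq_swap_of_apply_apply_eq_self (x := a) (by simpa) (by
      rw [Perm.cycleOf_apply_self, Perm.cycleOf_apply_apply_self, h4])
    rw [Perm.cycleOf_apply_self] at this
    exact this ▸ Perm.cycleOf_mem_cycleFactorsFinset_iff.2 (Perm.mem_support.2 ha)
  refine ⟨σ, h4, fun a b ha hb => card_le_one.1 (Nat.le_of_lt_succ h2) a (by simpa) b (by simpa),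
    fun a b ha hb => h3 ⟨mul_mem (subset_closure (h5 a ha)) (subset_closure (h5 b hb)), ?_⟩⟩
  simp [Perm.mem_alternatingGroup, ha.symm, hb.symm]

omit [Fintype α] in
theorem Mt.conj {M : Subgroup (Perm α)} {σ g : Perm α} (h : Mt M σ) (hg : g ∈ M) : Mt M (g * σ * g⁻¹) := by
  refine ⟨fun a => by simp [h.1], fun a b ha hb => g⁻¹.injective (h.2.1 _ _ (Perm.eq_inv_iff_eq.2 ha)
    (Perm.eq_inv_iff_eq.2 hb)), fun a b ha hb => ?_⟩
  convert mul_mem (mul_mem hg (h.2.2 (g⁻¹ a) (g⁻¹ b) (fun e => ha (Perm.eq_inv_iff_eq.1 e :))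
    fun e => hb (Perm.eq_inv_iff_eq.1 e :)))
    (inv_mem hg) using 1
  rw [← conj_mul, ← swap_apply_apply, ← swap_apply_apply]
  simp

theorem Mt.pick {M : Subgroup (Perm α)} {σ : Perm α} (h : Mt M σ) (hn : 6 ≤ Fintype.card α) {a : α}
    (ha : σ a ≠ a) (e : α) : ∃ t : Perm α, swap a (σ a) * t ∈ M ∧ t a = a ∧ t (σ a) = σ a ∧ t e = e := by
  obtain ⟨f, hf⟩ : ∃ f, ∀ z, σ z = z → z = f :=
    (em (∃ f, σ f = f)).elim (fun ⟨f, hf⟩ => ⟨f, fun z hz => h.2.1 z f hz hf⟩) fun h => ⟨a, fun z hz => (h ⟨z, hz⟩).elim⟩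
  obtain ⟨x, -, hx⟩ := exists_mem_notMem_of_card_lt_card
    (show #{a, σ a, e, σ e, f} < #(univ : Finset α) from card_le_five.trans_lt hn)
  simp only [mem_insert, mem_singleton, not_or] at hx
  obtain ⟨h1, h2, h3, h4, h5⟩ := hx
  have h6 : ∀ z, x ≠ σ z → z ≠ σ x := fun z hz e => hz (by rw [e, h.1])
  exact ⟨_, h.2.2 a x ha (mt (hf x) h5), swap_apply_of_ne_of_ne (Ne.symm h1) (h6 _ h2),
    swap_apply_of_ne_of_ne (Ne.symm h2) (σ.injective.ne (Ne.symm h1)), swap_apply_of_ne_of_ne (Ne.symm h3) (h6 _ h4)⟩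

theorem three_dvd {M : Subgroup (Perm α)} (h : ¬ 2 ∣ M.relIndex (alternatingGroup α)) (hn : 6 ≤ Fintype.card α)
    {g : Perm α} (hg : g ∈ M) (hc : g.IsCycle) (ho : ¬ 2 ∣ orderOf g) : 3 ∣ Nat.card M := by
  obtain ⟨σ, hσ⟩ := exists_mt h
  have key : ∀ σ τ a, Mt M σ → Mt M τ → σ a ≠ a → τ a ≠ a → σ a ≠ τ a → 3 ∣ Nat.card M :=
    fun σ τ a hσ hτ h1 h2 h3 => by
      obtain ⟨s, s1, s2, s3, s4⟩ := hσ.pick hn h1 (τ a)
      obtain ⟨t, t1, t2, t3, t4⟩ := hτ.pick hn h2 (σ a)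
      refine (dvd_orderOf_of_pow_apply (a := a) Nat.prime_three ?_ ?_).trans
        (Subgroup.orderOf_dvd_natCard _ (mul_mem s1 t1)) <;>
      simp [pow_succ, *, swap_apply_of_ne_of_ne h2 h3.symm, swap_apply_of_ne_of_ne h1 h3]
  have key' : ∀ σ τ a, Mt M σ → Mt M τ → σ a = a → τ a ≠ a → 3 ∣ Nat.card M := fun σ τ a hσ hτ h1 h2 =>
    key σ τ (τ a) hσ hτ (fun e => h2 (hσ.2.1 _ _ e h1)) (by rw [hτ.1]; exact h2.symm)
      (by rw [hτ.1]; exact fun e => h2 (σ.injective (e.trans h1.symm)))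
  by_contra h3
  have h4 : ∀ a, σ (g a) = g (σ a) := fun a => by
    by_contra h4
    have h5 : σ (g a) ≠ (g * σ * g⁻¹) (g a) := by simpa
    by_cases h6 : σ (g a) = g a
    · exact h3 (key' _ _ _ hσ (hσ.conj hg) h6 fun e => h5 (h6.trans e.symm))
    by_cases h7 : (g * σ * g⁻¹) (g a) = g a
    · exact h3 (key' _ _ _ (hσ.conj hg) hσ h7 h6)
    · exact h3 (key _ _ _ hσ (hσ.conj hg) h6 h7 h5)
  obtain ⟨z, hz, hz'⟩ : ∃ z, g z ≠ z ∧ σ z ≠ z := by
    obtain ⟨z, hz, -⟩ := hc
    by_contra! h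
    exact hz (hσ.2.1 _ _ (h _ (g.injective.ne hz)) (h z hz))
  obtain ⟨k, hk⟩ := hc.exists_pow_eq hz (show g (σ z) ≠ σ z by rw [← h4]; exact σ.injective.ne hz)
  refine ho ((dvd_orderOf_of_pow_apply (a := z) Nat.prime_two ?_ (hk ▸ hz')).trans (orderOf_pow_dvd k))
  have h5 : Commute σ g := Equiv.ext h4
  rw [sq, Perm.mul_apply, hk, ← Perm.mul_apply, ← (h5.pow_right k).eq, Perm.mul_apply, hk, hσ.1]

theorem smul_finset_compl (g : Perm α) (s : Finset α) : g • sᶜ = (g • s)ᶜ :=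
  Finset.ext fun x => by simp [← inv_smul_mem_iff]

/-- The stabilizer of the partition `{s, sᶜ}`. -/
def pairStab (s : Finset α) : Subgroup (Perm α) where
  carrier := {g | g • s = s ∨ g • s = sᶜ}
  mul_mem' ha hb := by
    rcases ha with ha | ha <;> rcases hb with hb | hb <;> simp [mul_smul, smul_finset_compl, *]
  one_mem' := .inl (one_smul _ _)
  inv_mem' ha := ha.imp (fun h => inv_smul_eq_iff.2 h.symm) fun h => by
    rw [inv_smul_eq_iff, smul_finset_compl, h, compl_compl]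

theorem exists_alt_smul (hn : 3 ≤ Fintype.card α) {s t : Finset α} (h : #s = #t) :
    ∃ g : alternatingGroup α, g.1 • s = t := by
  obtain ⟨g, hg⟩ := (Set.powersetCard.isPretransitive_alternatingGroup (n := #t) (α := α)
    (by simpa)).exists_smul_eq ⟨s, h⟩ ⟨t, rfl⟩
  exact ⟨g, congrArg Subtype.val hg⟩

theorem index_pairStab {s : Finset α} : (2 * #s ≠ Fintype.card α →
    (pairStab s).index = (Fintype.card α).choose #s) ∧ (2 * #s = Fintype.card α → 3 ≤ Fintype.card α →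
    2 * (pairStab s).index = (Fintype.card α).choose #s) := by
  have h1 : (stabilizer (Perm α) s).index = (Fintype.card α).choose #s := by
    have := Set.powersetCard.isPretransitive (α := α) (n := #s)
    rw [← Nat.card_eq_fintype_card, ← Set.powersetCard.card, ← index_stabilizer_of_transitive (Perm α) ⟨s, rfl⟩]
    exact congrArg _ (Subgroup.ext fun g => ⟨fun h => Subtype.ext h, fun h => congrArg Subtype.val h⟩)
  have h2 := card_compl s
  have h3 := card_le_univ s
  refine ⟨fun h => h1 ▸ congrArg _ (Subgroup.ext fun g => or_iff_left fun e => ?_), fun h hn => ?_⟩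
  · have := card_smul_finset g s
    rw [e] at this
    omega
  have h4 : s ≠ sᶜ := fun e => by
    have := (disjoint_self_iff_empty s).1 (disjoint_compl_right.mono_right e.le)
    rw [this] at h
    simp at h
    omega
  obtain ⟨a, ha⟩ := exists_alt_smul hn (show #s = #sᶜ by omega)
  rw [← h1, ← relIndex_mul_index (show stabilizer (Perm α) s ≤ pairStab s from fun _ => .inl),
    relIndex_eq_two_iff.2 ⟨a.1, Or.inr ha, fun b hb => ?_⟩]
  rcases hb with hb | hb <;> simp [mul_smul, smul_finset_compl, h4.symm, *]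

omit [DecidableEq α] in
theorem index_dvd_relIndex [DecidableEq α] {M X : Subgroup (Perm α)} (h : M ≤ X) {a b : α} (hab : a ≠ b)
    (hX : swap a b ∈ X) : X.index ∣ M.relIndex (alternatingGroup α) := by
  have := nontrivial_of_ne a b hab
  have h1 := relIndex_dvd_index_of_normal (alternatingGroup α) X
  rw [alternatingGroup.index_eq_two] at h1
  have h2 := ((Nat.dvd_prime Nat.prime_two).1 h1).resolve_left fun e => by
    simpa [Perm.mem_alternatingGroup, hab] using relIndex_eq_one.1 e hX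
  have h3 := relIndex_mul_index (inf_le_left : X ⊓ alternatingGroup α ≤ X)
  rw [← relIndex_mul_index inf_le_right, inf_relIndex_left, inf_relIndex_right, h2,
    alternatingGroup.index_eq_two] at h3
  exact (show X.index = _ by omega).dvd.trans (relIndex_dvd_of_le_left _ h)

/-- The parameters `(n, π, k)` of the proper Hall subgroups `pairStab s`, `#s = k`, of `S_n`. -/
def HCond (n : ℕ) (π : Set ℕ) (k : ℕ) : Prop :=
  (n.Prime ∧ (∀ r, r.Prime → r ≤ n → (r ∈ π ↔ r < n)) ∧ k = 1) ∨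
  ((n = 7 ∧ k = 3 ∨ n = 8 ∧ k = 4) ∧ ∀ r, r.Prime → r ≤ n → (r ∈ π ↔ (r = 2 ∨ r = 3)))

theorem index_pairStab' {s : Finset α} (h : Fintype.card α = 7 ∧ #s = 3 ∨ Fintype.card α = 8 ∧ #s = 4) :
    (pairStab s).index = 35 := by
  have := index_pairStab (s := s)
  rcases h with ⟨h, h'⟩ | ⟨h, h'⟩ <;> simp [h, h', Nat.choose] at this <;> omega

theorem hall_struct {M : Subgroup (Perm α)} {π : Set ℕ} (hM : ∀ p, p.Prime → p ∣ Nat.card M → p ∈ π)
    (hI : ∀ p, p.Prime → p ∈ π → ¬ p ∣ M.relIndex (alternatingGroup α))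
    (h2 : ∃ r s : ℕ, r.Prime ∧ s.Prime ∧ r ≠ s ∧ r ∈ π ∧ s ∈ π ∧ r ≤ Fintype.card α ∧ s ≤ Fintype.card α)
    (hns : ∃ r : ℕ, r.Prime ∧ r ≤ Fintype.card α ∧ r ∉ π) :
    ∃ s, M ≤ pairStab s ∧ HCond (Fintype.card α) π #s := by
  classical
  have cover : ∀ p, p.Prime → p ≠ 2 → p ∈ π → ∀ T : Finset α, p ≤ #T →
      ∃ c ∈ M, c.IsCycle ∧ #c.support = p ∧ ∃ x ∈ T, c x ≠ x := fun p hp ho hπ T hT => by
    obtain ⟨σ, h1, h2, h3⟩ := exists_cover hp one_ne_zero (hI p hp hπ)
    rw [pow_one] at h1 h2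
    obtain ⟨x, hx, hx'⟩ := exists_mem_notMem_of_card_lt_card (h2.trans_le hT)
    have h4 : x ∈ σ.support := by simpa using hx'
    have h5 := Perm.cycleOf_mem_cycleFactorsFinset_iff.2 h4
    have h6 := Perm.isCycle_cycleOf σ (Perm.mem_support.1 h4)
    refine ⟨_, h3 ⟨subset_closure h5, Perm.mem_alternatingGroup.2 ?_⟩, h6, h1 _ h5, x, hx, by simpa using h4⟩
    rw [h6.sign, h1 _ h5, (hp.odd_of_ne_two ho).neg_one_pow, neg_neg]
  obtain ⟨r, s, hr, hs, hrs, hrπ, hsπ, hsn⟩ : ∃ r s : ℕ, r.Prime ∧ s.Prime ∧ r < s ∧ r ∈ π ∧ s ∈ π ∧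
      s ≤ Fintype.card α := by
    obtain ⟨r, s, hr, hs, hrs, a, b, c, d⟩ := h2
    exact hrs.lt_or_gt.elim (fun h => ⟨r, s, hr, hs, h, a, b, d⟩) fun h => ⟨s, r, hs, hr, h, b, a, c⟩
  have hs2 : s ≠ 2 := by have := hr.two_le; omega
  obtain ⟨d, hd, d1, d2, -⟩ := cover s hs hs2 hsπ univ hsn
  have two : 2 ∈ π := by
    by_contra h
    have h1 : r ≠ 2 := fun e => h (e ▸ hrπ)
    obtain ⟨c, hc, c1, c2, x, hx, c3⟩ := cover r hr h1 hrπ d.support (d2 ▸ hrs.le)
    refine h (hM 2 Nat.prime_two ((hr.odd_of_ne_two h1).add_one.two_dvd.trans ((dvd_card_closure (S := {c, d})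
      (by simp [*]) (.inl rfl) c3 (by omega) ?_).trans (card_dvd_of_le ((closure_le M).2 (by
        simp [Set.insert_subset_iff, *]))))))
    refine hrs.trans_le (d2 ▸ (Set.ncard_coe_finset _).ge.trans (Set.ncard_le_ncard fun y hy => ?_))
    obtain ⟨k, rfl⟩ := d1.exists_pow_eq (Perm.mem_support.1 hx) (Perm.mem_support.1 hy)
    exact ⟨⟨_, pow_mem (subset_closure (.inr rfl)) k⟩, rfl⟩
  have three : 3 ∈ π := by
    by_contra h
    have h1 := hs.five_le_of_ne_two_of_ne_three hs2 fun e => h (e ▸ hsπ)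
    have h3 := mt (hM 3 Nat.prime_three) h
    rcases (h1.trans hsn).eq_or_lt with h4 | h4
    · have := alternatingGroup.isSimpleGroup (α := α) (by simp [← h4])
      have := Fintype.one_lt_card_iff_nontrivial.1 (show 1 < Fintype.card α by omega)
      have h5 : Nat.card (alternatingGroup α) = 60 := by
        rw [nat_card_alternatingGroup, Nat.card_eq_fintype_card, ← h4]; rfl
      have h6 := (M.subgroupOf (alternatingGroup α)).card_mul_index
      have h7 : ¬ 3 ∣ Nat.card (M.subgroupOf (alternatingGroup α)) := fun e => h3 (e.trans (by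
        rw [← card_map_of_injective (subtype_injective _)]; exact card_dvd_of_le (map_comap_le _ _)))
      have h8 := PSL2Rec.simple_card_dvd_factorial (H := M.subgroupOf (alternatingGroup α)) fun e => h7 (by
        rw [e, Subgroup.card_top, h5]; norm_num)
      have h9 := hI 2 Nat.prime_two two
      have h10 := hI 5 Nat.prime_five ((by omega : s = 5) ▸ hsπ)
      rw [h5] at h6 h8
      rw [relIndex] at h9 h10
      have h11 := Nat.le_of_dvd (by norm_num) (Dvd.intro_left _ h6)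
      generalize (M.subgroupOf (alternatingGroup α)).index = m at *
      interval_cases m <;> first | omega | simp [Nat.factorial] at h8
    · exact h3 (three_dvd (hI 2 Nat.prime_two two) h4 hd d1 (by
        rw [d1.orderOf, d2]; exact (hs.odd_of_ne_two hs2).not_two_dvd_nat))
  obtain ⟨q, hq, hqn, hqπ⟩ := hns
  have hq5 := hq.five_le_of_ne_two_of_ne_three (fun e => hqπ (e ▸ two)) fun e => hqπ (e ▸ three)
  let S : Set (Perm α) := {c | c ∈ M ∧ c.IsCycle ∧ #c.support = 3}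
  let N := Subgroup.closure S
  have hN : N ≤ M := (closure_le M).2 fun _ h => h.1
  let F : α → Prop := fun x => ∀ c ∈ S, c x = x
  have hF : ∀ x y, F x → y ∈ orbit N x → y = x := by
    rintro x _ h ⟨g, rfl⟩
    exact (closure_le (stabilizer _ x)).2 h g.2
  let R : Setoid α := ⟨fun x y => y ∈ orbit N x ∨ F x ∧ F y, fun x => .inl (mem_orbit_self x),
    fun h => h.imp mem_orbit_symm.1 And.symm, by
      rintro x y z (h | h) (h' | h')
      · exact .inl (orbit_eq_iff.2 h ▸ h')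
      · exact .inr ⟨(hF _ _ h'.1 (mem_orbit_symm.1 h)) ▸ h'.1, h'.2⟩
      · exact .inr ⟨h.1, hF _ _ h.2 h' ▸ h.2⟩
      · exact .inr ⟨h.1, h'.2⟩⟩
  have hR : ∀ g ∈ M, ∀ x y, R x y → R (g x) (g y) := fun g hg x y h => by
    have h1 : ∀ g ∈ M, ∀ c ∈ S, g * c * g⁻¹ ∈ S := fun g hg c hc =>
      ⟨mul_mem (mul_mem hg hc.1) (inv_mem hg), hc.2.1.conj, by rw [Perm.card_support_conj, hc.2.2]⟩
    have h2 : ∀ x, F x → F (g x) := fun x hx c hc =>
      Perm.inv_eq_iff_eq.1 (hx _ (h1 _ (inv_mem hg) c hc))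
    refine h.imp ?_ (And.imp (h2 x) (h2 y))
    rintro ⟨k, rfl⟩
    exact ⟨⟨g * k * g⁻¹, (closure_le (N.comap (MulAut.conj g).toMonoidHom)).2
      (fun c hc => subset_closure (h1 g hg c hc)) k.2⟩, by simp [Subgroup.smul_def]⟩
  have hX : M ≤ partStab R := fun g hg x y =>
    ⟨fun h => by simpa using hR _ (inv_mem hg) _ _ h, hR g hg x y⟩
  have big : ∀ x, ¬ F x → 3 ≤ #(pblk R x) ∧ ∀ p, p.Prime → p ≤ #(pblk R x) → p ∈ π := fun x hx => by
    have h1 : #(pblk R x) = Nat.card (orbit N x) := by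
      rw [Nat.card_coe_set_eq, ← Set.ncard_coe_finset]
      exact congrArg _ (Set.ext fun y => mem_pblk.trans (or_iff_left fun h => hx h.1))
    obtain ⟨c, hc, h2⟩ : ∃ c ∈ S, c x ≠ x := by simpa [F] using hx
    refine ⟨hc.2.2 ▸ card_le_card fun y hy => ?_, fun p hp h => (eq_or_ne p 2).elim (· ▸ two) fun h3 => ?_⟩
    · obtain ⟨k, rfl⟩ := hc.2.1.exists_pow_eq h2 (Perm.mem_support.1 hy)
      exact mem_pblk.2 (.inl ⟨⟨_, pow_mem (subset_closure hc) k⟩, rfl⟩)
    · exact hM p hp ((dvd_card_closure (fun c h => ⟨h.2.1, h.2.2 ▸ Nat.prime_three⟩) hc h2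
        (by have := hp.two_le; have := hc.2.2; omega) (h1 ▸ h)).trans (card_dvd_of_le hN))
  have nf : ∀ T : Finset α, 3 ≤ #T → ∃ x ∈ T, ¬ F x := fun T hT => by
    obtain ⟨c, hc, c1, c2, x, hx, c3⟩ := cover 3 Nat.prime_three (by norm_num) three T hT
    exact ⟨x, hx, fun h => c3 (h c ⟨hc, c1, c2⟩)⟩
  obtain ⟨x₀, -, h0⟩ := nf univ (by rw [card_univ]; omega)
  obtain ⟨x, -, hx⟩ := exists_max_image univ (fun x => #(pblk R x)) ⟨x₀, mem_univ _⟩
  have h3 := (big x₀ h0).1.trans (hx x₀ (mem_univ _))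
  obtain ⟨x', hx', h4⟩ := nf _ h3
  have h5 := pblk_eq (mem_pblk.1 hx') ▸ (big x' h4).2
  obtain ⟨a, ha, b, hb, hab⟩ := one_lt_card.1 (show 1 < #(pblk R x) by omega)
  have h6 := index_dvd_relIndex hX hab fun u v => by
    have : ∀ u, R (swap a b u) u := fun u => by
      have := R.trans' (R.symm' (mem_pblk.1 ha)) (mem_pblk.1 hb)
      rw [swap_apply_def]
      split_ifs with h h'
      exacts [h ▸ R.symm' this, h' ▸ this, R.refl' _]
    exact ⟨fun h => R.trans' (R.symm' (this u)) (R.trans' h (this v)),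
      fun h => R.trans' (this u) (R.trans' h (R.symm' (this v)))⟩
  obtain ⟨y, hy, h7⟩ := two_blocks h3 (fun y => hx y (mem_univ y)) (by
      by_contra! h
      exact hqπ (h5 q hq (hqn.trans (card_le_card fun y _ => mem_pblk.2 (h y)))))
    (fun p hp h e => hI p hp (h5 p hp h) (e.trans h6)) fun y z hy hz => .inr
      ⟨by by_contra h; have := (big y h).1; omega, by by_contra h; have := (big z h).1; omega⟩
  have h8 : partStab R ≤ pairStab (pblk R y) := fun g hg => by
    have : g • pblk R y = pblk R (g y) := Finset.ext fun z => by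
      rw [← inv_smul_mem_iff, mem_pblk, mem_pblk, ← hg]; simp
    exact (em (R y (g y))).imp (fun h => this.trans (pblk_eq h).symm) fun h =>
      this.trans ((pblk_eq (mem_pblk.1 (by rw [hy]; simpa))).symm.trans hy)
  have h9 := card_add_card_compl (pblk R y)
  rw [← hy] at h9
  refine ⟨_, hX.trans h8, h7.imp (fun h => ?_) fun h => ⟨by omega, fun p hp hn => ⟨fun hπ => ?_, ?_⟩⟩⟩
  · obtain rfl : q = Fintype.card α := by_contra fun e => hqπ (h5 q hq (by omega))
    exact ⟨hq, fun p hp hn => ⟨fun hπ => hn.lt_of_ne fun e => hqπ (e ▸ hπ), fun _ => h5 p hp (by omega)⟩, h⟩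
  · have h10 := mt (·.trans ((index_dvd_of_le h8).trans h6) : p ∣ _ → _) (hI p hp hπ)
    rw [index_pairStab' (by omega)] at h10
    have : p ≤ 8 := by omega
    interval_cases p <;> first | omega | norm_num at hp
  · rintro (rfl | rfl) <;> assumption

end CfsgLib.SymSub
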